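import Cfsg.Agent.H786.S8.MEleven
import Cfsg.Agent.H786.S8.SocTwo

/-!
# S4908, M11: SOC2 (helper786)
-/

set_option autoImplicit false

namespace Cfsg.Agent.H786.S8.MEleven

open Cfsg

universe u v
variable {G : Type u} [Group G] [Finite G]

/-- **SOC2** for `M11` -/
theorem soc2 (hG : Cfsg.IsM11 G) {D : Set ℕ} (hD : H704.S8.Deg 1 G D) : H704.S8.Soc2.{v} D := by
  refine soc2_of_list (L := [1, 10, 11, 16, 44, 45, 55]) (M := 8) (P := [2, 3]) (fun d hd => (deg_iff hG hD).1 hd)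
    (by decide) (by decide +kernel) ⟨2, 3, by decide⟩

end Cfsg.Agent.H786.S8.MEleven
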